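import Cfsg.Agent.Co0Seven97.Elements

/-!
# Monomial elements commuting with, or inverting, the element of order 7
-/

set_option autoImplicit false
set_option maxRecDepth 100000

noncomputable section

namespace CfsgLib.Co0Seven

open Cfsg CfsgLib.Leech CfsgLib.Mathieu CfsgLib.Golay CfsgLib.Co0Five CfsgLib.StdCo0

/-- Iterated application of a table. -/
def powApp (T : List ℕ) : ℕ → ℕ → ℕ
  | 0, i => i
  | j + 1, i => app T (powApp T j i)

/-- The table with given values at the representatives, equivariant for the target table. -/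
def build (T : List ℕ) (vals : List ℕ) : List ℕ :=
  (List.range 24).map fun i =>
    powApp T (posList.getD i (0, 0)).2 (vals.getD (posList.getD i (0, 0)).1 0)

/-- Two points in one orbit of the target table. -/
def orbHas (T : List ℕ) (p q : ℕ) : Bool := (List.range 7).any fun j => powApp T j p == q

/-- The representatives of the moved orbits. -/
def headPts : List ℕ := repPts.drop 3

/-- All candidate tables in the group whose first moved value is a representative are listed. -/
def candOK (T : List ℕ) (out : List (List ℕ)) : Bool :=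
  fixPts.all fun a => fixPts.all fun b => fixPts.all fun c =>
    a == b || a == c || b == c ||
      headPts.all fun p => movePts.all fun q => orbHas T p q ||
        movePts.all fun r => orbHas T p r || orbHas T q r ||
          !tabInM24 (build T [a, b, c, p, q, r]) || out.contains (build T [a, b, c, p, q, r])

/-- The list is closed under right multiplication by the powers. -/
def closedOK (out : List (List ℕ)) : Bool :=
  out.all fun t => powTabs.all fun u => out.contains (compTab t u)

theorem cent_closed : closedOK centTabs = true := by decide +kernel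

theorem cand_comm : candOK sTab centTabs = true := by decide +kernel

theorem cand_inv : candOK sInvTab [] = true := by decide +kernel

theorem tabInM24_toTab {g : Equiv.Perm GolayPt} (hg : g ∈ M24) : tabInM24 (toTab g) = true := by
  simp only [tabInM24, Bool.and_eq_true, beq_iff_eq, decide_eq_true_eq, List.all_eq_true]
  refine ⟨⟨⟨by simp [toTab], ?_⟩, ?_⟩, ?_⟩
  · intro i hi
    obtain ⟨k, -, rfl⟩ := List.mem_map.1 hi
    exact p2i_lt _
  · exact List.nodup_range.map_on fun a ha b hb e =>
      i2p_inj (List.mem_range.1 ha) (List.mem_range.1 hb) (g.injective (p2i_injective e))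
  · intro b hb
    rw [maskImageF_eq]
    refine ⟨maskImage_lt g b, ?_⟩
    have h := mem_M24_iff.1 hg b hb
    rwa [smul_ofMask_tab, toMask_ofMask (maskImage_lt g b)] at h

theorem tab_step {g : Equiv.Perm GolayPt} {T : List ℕ}
    (h : compTab (toTab g) sTab = compTab T (toTab g)) (i : ℕ) (hi : i < 24) :
    app (toTab g) (app sTab i) = app T (app (toTab g) i) := by
  have h1 := congrArg (fun l => app l i) h
  have hs : i < sTab.length := by
    rw [show sTab.length = 24 by decide +kernel]; exact hi
  have hg' : i < (toTab g).length := by simpa [toTab] using hi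
  simpa [compTab, app, List.getD_eq_getElem?_getD, List.getElem?_eq_getElem hs,
    List.getElem?_eq_getElem hg'] using h1

theorem equiv_list_head {g : Equiv.Perm GolayPt} (hg : g ∈ M24) {T : List ℕ}
    {out : List (List ℕ)} (hOK : candOK T out = true) (hT : T = sTab ∨ T = sInvTab)
    (h : compTab (toTab g) sTab = compTab T (toTab g))
    (hhead : app (toTab g) (repPts.getD 3 0) ∈ headPts) : toTab g ∈ out := by
  have hstep := tab_step h
  have hslt : ∀ i : Fin 24, app sTab i < 24 := by decide +kernel
  have hiter : ∀ j i, i < 24 → app (toTab g) (powApp sTab j i) = powApp T j (app (toTab g) i) := by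
    intro j
    induction j with
    | zero => intro i _; rfl
    | succ j ih =>
      intro i hi
      have hlt : powApp sTab j i < 24 := by
        clear ih
        induction j with
        | zero => exact hi
        | succ j ih' => exact hslt ⟨_, ih'⟩
      show app (toTab g) (app sTab _) = app T _
      rw [hstep _ hlt, ih i hi]
  have hpos : ∀ i : Fin 24, powApp sTab (posList.getD i (0, 0)).2
      (repPts.getD (posList.getD i (0, 0)).1 0) = i ∧ (posList.getD i (0, 0)).1 < 6 := by
    decide +kernel
  have hrep : repPts.length = 6 ∧ ∀ k : Fin 6, repPts.getD k 0 < 24 := by decide +kernel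
  set vals : List ℕ := repPts.map (app (toTab g)) with hvals
  have hbuild : build T vals = toTab g := by
    refine List.ext_getElem (by simp [build, toTab]) fun i h1 h2 => ?_
    have hi : i < 24 := by simpa [build] using h1
    obtain ⟨hp, hk⟩ := hpos ⟨i, hi⟩
    simp only at hp hk
    have hk' : (posList.getD i (0, 0)).1 < repPts.length := hrep.1 ▸ hk
    have hv : vals.getD (posList.getD i (0, 0)).1 0 =
        app (toTab g) (repPts.getD (posList.getD i (0, 0)).1 0) := by
      simp only [hvals, List.getD_eq_getElem?_getD] at hk' ⊢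
      rw [List.getElem?_map, List.getElem?_eq_getElem hk']
      rfl
    have := hiter (posList.getD i (0, 0)).2 _ (hrep.2 ⟨_, hk⟩)
    rw [hp] at this
    simp only [build, List.getElem_map, List.getElem_range, hv, ← this]
    simp [app, List.getD_eq_getElem?_getD, List.getElem?_eq_getElem h2]
  have hinj : ∀ i j, i < 24 → j < 24 → app (toTab g) i = app (toTab g) j → i = j := by
    intro i j hi hj e
    rw [app_toTab g i hi, app_toTab g j hj] at e
    exact i2p_inj hi hj (g.injective (p2i_injective e))
  have htype : ∀ r, r < 24 → (app sTab r = r ↔ app T (app (toTab g) r) = app (toTab g) r) := by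
    intro r hr
    rw [← hstep r hr]
    exact ⟨fun e => by rw [e], fun e => hinj _ _ (hslt ⟨r, hr⟩) hr e⟩
  have hTfix : ∀ v : Fin 24, (app T v = (v : ℕ) → (v : ℕ) ∈ fixPts) ∧
      (app T v ≠ (v : ℕ) → (v : ℕ) ∈ movePts) := by
    rcases hT with rfl | rfl <;> decide +kernel
  have hlt : ∀ r, r < 24 → app (toTab g) r < 24 := fun r hr => app_toTab g r hr ▸ p2i_lt _
  have hmem : ∀ k : Fin 6, ((k : ℕ) < 3 → app (toTab g) (repPts.getD k 0) ∈ fixPts) ∧
      (3 ≤ (k : ℕ) → app (toTab g) (repPts.getD k 0) ∈ movePts) := by
    intro k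
    have hr := hrep.2 k
    have hh : ((k : ℕ) < 3 → app sTab (repPts.getD k 0) = repPts.getD k 0) ∧
        (3 ≤ (k : ℕ) → app sTab (repPts.getD k 0) ≠ repPts.getD k 0) := by
      revert k; decide +kernel
    exact ⟨fun h3 => (hTfix ⟨_, hlt _ hr⟩).1 ((htype _ hr).1 (hh.1 h3)),
      fun h3 => (hTfix ⟨_, hlt _ hr⟩).2 fun e => hh.2 h3 ((htype _ hr).2 e)⟩
  have hne : ∀ k l : Fin 6, k ≠ l → (k : ℕ) < 3 → (l : ℕ) < 3 →
      app (toTab g) (repPts.getD k 0) ≠ app (toTab g) (repPts.getD l 0) := by
    intro k l hkl _ _ e
    have hk : ∀ k l : Fin 6, repPts.getD k 0 = repPts.getD l 0 → k = l := by decide +kernel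
    exact hkl (hk _ _ (hinj _ _ (hrep.2 k) (hrep.2 l) e))
  have horb : ∀ k l : Fin 6, k ≠ l →
      orbHas T (app (toTab g) (repPts.getD k 0)) (app (toTab g) (repPts.getD l 0)) = false := by
    intro k l hkl
    by_contra hb
    rw [Bool.not_eq_false, orbHas, List.any_eq_true] at hb
    obtain ⟨j, hj, e⟩ := hb
    rw [beq_iff_eq, ← hiter j _ (hrep.2 k)] at e
    have hlt' : ∀ k : Fin 6, ∀ j : Fin 7, powApp sTab j (repPts.getD k 0) < 24 ∧
        ∀ l : Fin 6, k ≠ l → powApp sTab j (repPts.getD k 0) ≠ repPts.getD l 0 := by decide +kernel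
    obtain ⟨h1, h2⟩ := hlt' k ⟨j, List.mem_range.1 hj⟩
    exact h2 l hkl (hinj _ _ h1 (hrep.2 l) e)
  have hv6 : vals = [app (toTab g) (repPts.getD (0 : Fin 6) 0),
      app (toTab g) (repPts.getD (1 : Fin 6) 0), app (toTab g) (repPts.getD (2 : Fin 6) 0),
      app (toTab g) (repPts.getD (3 : Fin 6) 0), app (toTab g) (repPts.getD (4 : Fin 6) 0),
      app (toTab g) (repPts.getD (5 : Fin 6) 0)] := rfl
  simp only [candOK, List.all_eq_true, Bool.or_eq_true, beq_iff_eq, Bool.not_eq_true',
    List.contains_iff_mem] at hOK
  rcases hOK _ ((hmem 0).1 (by decide)) _ ((hmem 1).1 (by decide)) _ ((hmem 2).1 (by decide)) with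
    ((e | e) | e) | e
  · exact absurd e (hne 0 1 (by decide) (by decide) (by decide))
  · exact absurd e (hne 0 2 (by decide) (by decide) (by decide))
  · exact absurd e (hne 1 2 (by decide) (by decide) (by decide))
  · have hhead' : app (toTab g) (repPts.getD ((3 : Fin 6) : ℕ) 0) ∈ headPts := hhead
    rcases e _ hhead' _ ((hmem 4).2 (by decide)) with e | e
    · rw [horb 3 4 (by decide)] at e; simp at e
    · rcases e _ ((hmem 5).2 (by decide)) with ((e | e) | e) | e
      · rw [horb 3 5 (by decide)] at e; simp at e
      · rw [horb 4 5 (by decide)] at e; simp at e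
      · rw [← hv6, hbuild, tabInM24_toTab hg] at e; simp at e
      · rwa [← hv6, hbuild] at e

theorem moved_orbit : ∀ v : Fin 24, (v : ℕ) ∈ movePts →
    (∃ j : Fin 7, powApp sTab j v ∈ headPts) ∧ ∃ j : Fin 7, powApp sInvTab j v ∈ headPts := by
  decide +kernel

/-- All tables commuting with, or inverting, are listed. -/
theorem equiv_list {g : Equiv.Perm GolayPt} (hg : g ∈ M24) {T : List ℕ} {out : List (List ℕ)}
    (hOK : candOK T out = true) (hcl : closedOK out = true) (hT : T = sTab ∨ T = sInvTab)
    (h : compTab (toTab g) sTab = compTab T (toTab g)) : toTab g ∈ out := by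
  obtain ⟨s, hs, hst⟩ := rep_of_tabInM24 (show tabInM24 sTab = true by decide +kernel)
  have hpow : ∀ j : ℕ, toTab (s ^ j) = powTabs.getD (j % 7) [] := by
    intro j
    induction j with
    | zero => rw [pow_zero, toTab_one]; decide +kernel
    | succ j ih =>
      rw [pow_succ', toTab_mul, ih, hst]
      have e : ∀ r : Fin 7, compTab sTab (powTabs.getD r []) =
          powTabs.getD (((r : ℕ) + 1) % 7) [] := by decide +kernel
      rw [e ⟨j % 7, Nat.mod_lt _ (by norm_num)⟩]
      show powTabs.getD ((j % 7 + 1) % 7) [] = _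
      rw [Nat.mod_add_mod]
  have hiter : ∀ j : ℕ, app (toTab g) (p2i ((s ^ j) (i2p (repPts.getD 3 0)))) =
      powApp T j (app (toTab g) (repPts.getD 3 0)) := by
    intro j
    induction j with
    | zero =>
      rw [pow_zero, Equiv.Perm.one_apply, p2i_i2p _ (by decide +kernel)]
      rfl
    | succ j ih =>
      rw [pow_succ', Equiv.Perm.mul_apply, powApp, ← ih,
        ← tab_step h _ (p2i_lt _), ← hst, app_toTab' s, app_toTab' g]
  have hmove : app (toTab g) (repPts.getD 3 0) ∈ movePts := by
    have hk := hiter 1
    have hne : ∀ v : Fin 24, (v : ℕ) ∉ movePts → app T v = (v : ℕ) := by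
      rcases hT with rfl | rfl <;> decide +kernel
    by_contra hn
    have hlt : app (toTab g) (repPts.getD 3 0) < 24 :=
      app_toTab g _ (by decide +kernel : repPts.getD 3 0 < 24) ▸ p2i_lt _
    have e := hne ⟨_, hlt⟩ hn
    rw [show powApp T 1 (app (toTab g) (repPts.getD 3 0)) = app T (app (toTab g) (repPts.getD 3 0))
      from rfl, show app T (app (toTab g) (repPts.getD 3 0)) = app (toTab g) (repPts.getD 3 0) from e,
      app_toTab' g, app_toTab g _ (by decide +kernel)] at hk
    have e2 := g.injective (p2i_injective hk)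
    rw [pow_one] at e2
    have e3 : app sTab (repPts.getD 3 0) = repPts.getD 3 0 := by
      conv_lhs => rw [← hst, app_toTab s _ (by decide +kernel), e2,
        p2i_i2p _ (by decide +kernel)]
    revert e3
    decide +kernel
  obtain ⟨j, hj⟩ : ∃ j : Fin 7, powApp T j (app (toTab g) (repPts.getD 3 0)) ∈ headPts := by
    have hlt : app (toTab g) (repPts.getD 3 0) < 24 :=
      app_toTab g _ (by decide +kernel : repPts.getD 3 0 < 24) ▸ p2i_lt _
    rcases hT with rfl | rfl
    · exact (moved_orbit ⟨_, hlt⟩ hmove).1
    · exact (moved_orbit ⟨_, hlt⟩ hmove).2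
  have hcomm : compTab (toTab (g * s ^ (j : ℕ))) sTab = compTab T (toTab (g * s ^ (j : ℕ))) := by
    rw [← hst, ← toTab_mul, mul_assoc, ← pow_succ, pow_succ', ← mul_assoc, toTab_mul,
      toTab_mul g s, hst, h, toTab_mul g]
    simp only [compTab, List.map_map]
    refine List.map_congr_left fun x hx => ?_
    obtain ⟨k, hk, rfl⟩ := List.mem_map.1 hx
    have hl : p2i ((s ^ (j : ℕ)) (i2p k)) < (toTab g).length := by simpa [toTab] using p2i_lt _
    simp [app, List.getD_eq_getElem?_getD, List.getElem?_eq_getElem hl]
  have hhead : app (toTab (g * s ^ (j : ℕ))) (repPts.getD 3 0) ∈ headPts := by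
    rw [app_toTab _ _ (by decide +kernel), Equiv.Perm.mul_apply, ← app_toTab', hiter]
    exact hj
  have hmem := equiv_list_head (mul_mem hg (pow_mem hs _)) hOK hT hcomm hhead
  simp only [closedOK, List.all_eq_true, List.contains_iff_mem] at hcl
  have hu : powTabs.getD ((7 - (j : ℕ)) % 7) [] ∈ powTabs := by
    have hl : (7 - (j : ℕ)) % 7 < powTabs.length := by
      rw [show powTabs.length = 7 by decide +kernel]; exact Nat.mod_lt _ (by norm_num)
    rw [List.getD_eq_getElem _ _ hl]
    exact List.getElem_mem hl
  have h7 : s ^ 7 = 1 := by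
    refine toTab_injective ?_
    rw [hpow, toTab_one]
    decide +kernel
  have := hcl _ hmem _ hu
  rwa [← hpow, ← toTab_mul, mul_assoc, ← pow_add,
    show (j : ℕ) + (7 - (j : ℕ)) = 7 by omega, h7, mul_one] at this

theorem mask_list {C : ℕ} (hC : inCode C = true) (h : maskImage sTab C = C) : C ∈ fixMasks := by
  have key : ∀ n, n < 4096 → (maskImage sTab (word n) == word n) = true → word n ∈ fixMasks := by
    have hb : (List.range 4096).all (fun n =>
        !(maskImage sTab (word n) == word n) || fixMasks.contains (word n)) = true := by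
      decide +kernel
    simp only [List.all_eq_true, Bool.or_eq_true, Bool.not_eq_true', List.contains_iff_mem] at hb
    intro n hn he
    rcases hb n (List.mem_range.2 hn) with e | e
    · rw [he] at e; simp at e
    · exact e
  have e : word (C % 4096) = C := by simpa [inCode] using hC
  rw [← e]
  exact key _ (Nat.mod_lt _ (by norm_num)) (by rw [e, beq_iff_eq]; exact h)

/-- The monomial elements commuting with the element. -/
theorem frame_comm {g : Co0} (hg : g ∈ frameStab) (h : g * sigma = sigma * g) :
    ∃ C ∈ fixMasks, ∃ t ∈ centTabs, MRep g C t := by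
  obtain ⟨C, t, hr, hC, τ, hτ, rfl⟩ := frameStab_mrep hg
  have h1 := hr.mul mrep_sigma
  rw [h] at h1
  obtain ⟨e1, e2⟩ := MRep.unique h1 (mrep_sigma.mul hr)
  rw [maskImage_zero, Nat.xor_zero, Nat.zero_xor] at e1
  exact ⟨C, mask_list hC e1.symm, _, equiv_list hτ cand_comm cent_closed (Or.inl rfl) e2, hr⟩

/-- No monomial element inverts the element. -/
theorem frame_not_invert {g : Co0} (hg : g ∈ frameStab) : g * sigma ≠ sigma⁻¹ * g := by
  intro h
  obtain ⟨C, t, hr, hC, τ, hτ, rfl⟩ := frameStab_mrep hg
  have h1 := hr.mul mrep_sigma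
  rw [h] at h1
  obtain ⟨-, e2⟩ := MRep.unique h1 (mrep_sigma_inv.mul hr)
  exact absurd (equiv_list hτ cand_inv rfl (Or.inr rfl) e2) (by simp)

end CfsgLib.Co0Seven

end
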