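import Cfsg.Agent.Co0Seven97.Classes
import Cfsg.Agent.Co0Seven97.Monomials

/-!
# The centraliser of the element of order 7 acts as `SL(3, 2)`
-/

set_option autoImplicit false
set_option maxRecDepth 100000

noncomputable section

namespace CfsgLib.Co0Seven

open Cfsg CfsgLib.Leech CfsgLib.Mathieu CfsgLib.Golay CfsgLib.Co0Five CfsgLib.StdCo0

/-- The centraliser. -/
def cSigma : Subgroup Co0 := Subgroup.centralizer {sigma}

theorem mem_cSigma {c : Co0} : c ∈ cSigma ↔ c * sigma = sigma * c := by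
  rw [cSigma, Subgroup.mem_centralizer_singleton_iff, eq_comm]

theorem fixed_axis : Fixed (axisVec none) :=
  ((cg_axis_base.smul sigma).trans ((sigma_bv 0).symm ▸ Cg.refl _)).trans cg_axis_base.symm

theorem fixed_bv (j : Fin 6) : Fixed (bv j) := by
  rw [Fixed, sigma_bv]; exact Cg.refl _

theorem fixed_smul {c : Co0} (hc : c ∈ cSigma) {v : leechLattice} (h : Fixed v) :
    Fixed (c • v) := by
  have e := h.smul c
  rw [← mul_smul, mem_cSigma.1 hc, mul_smul] at e
  exact e

theorem sigma_inv_cg {v : leechLattice} (h : Fixed v) : Cg (sigma⁻¹ • v) v := by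
  simpa using (h.smul sigma⁻¹).symm

/-- The monomial element of a pair of indices. -/
def monP (p : ℕ × ℕ) : Co0 := mon (fixMasks.getD p.1 0, centTabs.getD p.2 [])

/-- The list action of a pair of indices. -/
def monPL (p : ℕ × ℕ) (l : List ℤ) : List ℤ :=
  monList (fixMasks.getD p.1 0) (centTabs.getD p.2 []) l

/-- A valid pair of indices. -/
def validP (p : ℕ × ℕ) : Prop :=
  inCode (fixMasks.getD p.1 0) = true ∧ tabInM24 (centTabs.getD p.2 []) = true ∧
    compTab (centTabs.getD p.2 []) sTab = compTab sTab (centTabs.getD p.2 []) ∧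
    maskImage sTab (fixMasks.getD p.1 0) = fixMasks.getD p.1 0

instance (p : ℕ × ℕ) : Decidable (validP p) := by unfold validP; infer_instance

theorem monP_mem {p : ℕ × ℕ} (h : validP p) : monP p ∈ cSigma := by
  obtain ⟨h1, h2, h3, h4⟩ := h
  have hm := mrep_mon (x := (fixMasks.getD p.1 0, centTabs.getD p.2 [])) h1 h2
  unfold monP
  refine mem_cSigma.2 (MRep.ext (hm.mul mrep_sigma) ?_)
  have e := mrep_sigma.mul hm
  simp only [] at e
  rw [Nat.zero_xor, h4, ← h3] at e
  simpa [maskImage_zero] using e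

theorem ofVec_monP {p : ℕ × ℕ} (h : validP p) (v : leechLattice) :
    ofVec ((monP p • v : leechLattice) : GolayPt → ℤ) = monPL p (ofVec (v : GolayPt → ℤ)) :=
  MRep.ofVec_smul (mrep_mon (x := (fixMasks.getD p.1 0, centTabs.getD p.2 [])) h.1 h.2.1) v

theorem gam_mem : gam ∈ cSigma := mem_cSigma.2 gam_comm

theorem aMon_ok : aMon.length = 6 ∧ ∀ n : Fin 6, validP (aMon.getD n (0, 0)) ∧
    chiList (monPL (aMon.getD n (0, 0))
      (stepList gRows ((List.range 24).map fun k => bif k == 23 then 8 else 0))) =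
      xOf ((n : ℕ) + 2) := by
  decide +kernel

theorem bMon_ok : ∀ n : Fin 7,
    validP ((bMon.getD n (0, 0, 0)).1, (bMon.getD n (0, 0, 0)).2.1) ∧
    chiList (monPL ((bMon.getD n (0, 0, 0)).1, (bMon.getD n (0, 0, 0)).2.1)
      (stepList (inverRows (bMon.getD n (0, 0, 0)).2.2)
        ((List.range 24).map fun k => bif k == 23 then 8 else 0))) = xOf (8 * ((n : ℕ) + 1)) := by
  decide +kernel

/-- Elements of the centraliser reaching each class of the first family. -/
def kA (n : ℕ) : Co0 := bif n ≤ 1 then 1 else monP (aMon.getD (n - 2) (0, 0)) * gam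

theorem kA_spec : ∀ n : Fin 8, (n : ℕ) ≠ 0 →
    kA n ∈ cSigma ∧ chi (kA n • axisVec none) = xOf n := by
  intro n hn
  by_cases h1 : (n : ℕ) ≤ 1
  · have e : (n : ℕ) = 1 := by omega
    rw [kA, decide_eq_true h1, cond_true]
    refine ⟨one_mem _, ?_⟩
    rw [one_smul, chi_cg cg_axis_base, chi_eq, ofVec_bv, e]
    decide +kernel
  · obtain ⟨hv, he⟩ := aMon_ok.2 ⟨(n : ℕ) - 2, by omega⟩
    rw [kA, decide_eq_false h1, cond_false]
    refine ⟨mul_mem (monP_mem hv) gam_mem, ?_⟩
    rw [chi_eq, mul_smul, ofVec_monP hv, ofVec_gam, ofVec_axis]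
    rw [show p2i (none : GolayPt) = 23 from rfl]
    simpa [show (n : ℕ) - 2 + 2 = n by omega] using he

/-- Inverting elements reaching each class of the second family. -/
def kB (n : ℕ) : Co0 :=
  monP ((bMon.getD n (0, 0, 0)).1, (bMon.getD n (0, 0, 0)).2.1) *
    inver (bMon.getD n (0, 0, 0)).2.2

theorem kB_spec (n : Fin 7) :
    kB n * sigma = sigma⁻¹ * kB n ∧ chi (kB n • axisVec none) = xOf (8 * ((n : ℕ) + 1)) := by
  obtain ⟨hv, he⟩ := bMon_ok n
  constructor
  · have hm := mem_cSigma.1 (monP_mem hv)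
    show SemiconjBy (kB n) sigma sigma⁻¹
    exact SemiconjBy.mul_left (Commute.inv_right hm) (inver_comm _)
  · rw [chi_eq, kB, mul_smul, ofVec_monP hv, ofVec_inver, ofVec_axis]
    exact he

/-- An element inverting `sigma`. -/
theorem exists_invert : ∃ k : Co0, k * sigma * k⁻¹ = sigma⁻¹ :=
  ⟨kB ((0 : Fin 7) : ℕ), by rw [(kB_spec 0).1, mul_inv_cancel_right]⟩

/-- The coordinates of the first family, with zero. -/
def InA (x : Fin 6 → ZMod 2) : Prop := x 3 = 0 ∧ x 4 = 0 ∧ x 5 = 0

theorem inA_xOf : ∀ x : Fin 6 → ZMod 2, x ≠ 0 → x 3 = 0 ∧ x 4 = 0 ∧ x 5 = 0 →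
    ∃ n : Fin 8, (n : ℕ) ≠ 0 ∧ xOf n = x := by decide +kernel

theorem inB_xOf : ∀ x : Fin 6 → ZMod 2, x ≠ 0 → x 0 = 0 ∧ x 1 = 0 ∧ x 2 = 0 →
    ∃ n : Fin 7, xOf (8 * ((n : ℕ) + 1)) = x := by decide +kernel

theorem inA_axis {c : Co0} (hc : c ∈ cSigma) : InA (chi (c • axisVec none)) := by
  have hf := fixed_smul hc fixed_axis
  obtain ⟨hne, h | h⟩ := (rel_iff_isFrameX hf).1 ⟨c⁻¹, by simpa using Cg.refl _⟩
  · exfalso
    obtain ⟨n, hn⟩ := inB_xOf _ hne h
    obtain ⟨hk, hx⟩ := kB_spec n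
    have hfk : Fixed (kB n • axisVec none) := by
      have e := (sigma_inv_cg fixed_axis).smul (kB n)
      have h2 : kB n * sigma⁻¹ = sigma * kB n := by
        have h4 : SemiconjBy (kB n) sigma⁻¹ sigma := by simpa using (SemiconjBy.inv_right hk)
        exact h4.eq
      rwa [← mul_smul, h2, mul_smul] at e
    have hcg : Cg (c • axisVec none) (kB n • axisVec none) :=
      fixed_cg_of_chi hf hfk (by rw [hx, hn])
    have hm : (kB n)⁻¹ * c ∈ frameStab := by
      rw [mem_frameStab, mul_smul]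
      simpa using hcg.smul (kB n)⁻¹
    refine frame_not_invert hm ?_
    have h3 : (kB n)⁻¹ * sigma = sigma⁻¹ * (kB n)⁻¹ := by
      have h4 : SemiconjBy (kB n) sigma⁻¹ sigma := by simpa using (SemiconjBy.inv_right hk)
      exact SemiconjBy.inv_symm_left h4
    rw [mul_assoc, mem_cSigma.1 hc, ← mul_assoc, h3, mul_assoc]
  · exact h

theorem inA_chi {c : Co0} (hc : c ∈ cSigma) {v : leechLattice} (hv : Fixed v)
    (h : InA (chi v)) : InA (chi (c • v)) := by
  rcases eq_or_ne (chi v) 0 with h0 | h0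
  · have := (fixed_eq hv).smul c
    rw [h0, comb_zero, co0_map_zero] at this
    rw [chi_cg this, map_zero]
    exact ⟨rfl, rfl, rfl⟩
  · obtain ⟨n, hn, e⟩ := inA_xOf _ h0 h
    obtain ⟨hk, hx⟩ := kA_spec n hn
    have hcg : Cg v (kA n • axisVec none) :=
      fixed_cg_of_chi hv (fixed_smul hk fixed_axis) (by rw [hx, e])
    rw [chi_cg (hcg.smul c), ← mul_smul]
    exact inA_axis (mul_mem hc hk)

/-- The first three indices. -/
def emb (i : Fin 3) : Fin 6 := ⟨i, by omega⟩

/-- The matrix on the first family. -/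
def mat (c : Co0) : Matrix (Fin 3) (Fin 3) (ZMod 2) :=
  Matrix.of fun i j => chi (c • bv (emb j)) (emb i)

theorem chi_smul {c : Co0} {v : leechLattice} (hv : Fixed v)
    (h : InA (chi v)) (i : Fin 3) :
    chi (c • v) (emb i) = ∑ j, mat c i j * chi v (emb j) := by
  obtain ⟨h3, h4, h5⟩ := h
  rw [chi_cg ((fixed_eq hv).smul c), comb, co0_map_sum, map_sum, Finset.sum_apply,
    Fin.sum_univ_six, Fin.sum_univ_three]
  simp only [h3, h4, h5, zero_ne_one, if_false, co0_map_zero, map_zero, Pi.zero_apply, add_zero]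
  have key : ∀ j : Fin 3, chi (c • (if chi v (emb j) = 1 then bv (emb j) else 0)) (emb i) =
      mat c i j * chi v (emb j) := by
    intro j
    rcases (show ∀ a : ZMod 2, a = 0 ∨ a = 1 by decide) (chi v (emb j)) with e | e <;>
      simp [e, mat, co0_map_zero]
  exact congrArg₂ (· + ·) (congrArg₂ (· + ·) (key 0) (key 1)) (key 2)

theorem inA_bv (j : Fin 3) : InA (chi (bv (emb j))) := by
  refine ⟨?_, ?_, ?_⟩ <;> (rw [chi_bv, if_neg]; simp [emb, Fin.ext_iff]; omega)

theorem chi_bv_emb : ∀ i j : Fin 3,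
    chi (bv (emb j)) (emb i) = (1 : Matrix (Fin 3) (Fin 3) (ZMod 2)) i j := by
  intro i j
  rw [chi_bv, Matrix.one_apply]
  revert i j
  decide +kernel

theorem mat_mul {c d : Co0} (hd : d ∈ cSigma) : mat (c * d) = mat c * mat d := by
  ext i j
  rw [Matrix.mul_apply]
  show chi ((c * d) • bv (emb j)) (emb i) = _
  rw [mul_smul, chi_smul (fixed_smul hd (fixed_bv _)) (inA_chi hd (fixed_bv _) (inA_bv j))]
  rfl

theorem mat_one : mat 1 = 1 := by
  ext i j
  show chi ((1 : Co0) • bv (emb j)) (emb i) = _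
  rw [one_smul]
  exact chi_bv_emb i j

theorem det_mat {c : Co0} (hc : c ∈ cSigma) : (mat c).det = 1 := by
  have h := congrArg Matrix.det ((mat_mul (c := c) (inv_mem hc)).symm.trans
    (by rw [mul_inv_cancel, mat_one]))
  rw [Matrix.det_mul, Matrix.det_one] at h
  rcases (show ∀ a : ZMod 2, a = 0 ∨ a = 1 by decide) (mat c).det with e | e
  · rw [e, zero_mul] at h; exact absurd h zero_ne_one
  · exact e

/-- The action on the first family. -/
def rho : cSigma →* Matrix.SpecialLinearGroup (Fin 3) (ZMod 2) where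
  toFun c := ⟨mat c, det_mat c.2⟩
  map_one' := Subtype.ext mat_one
  map_mul' _ d := Subtype.ext (mat_mul d.2)

/-- The matrix of a list action. -/
def matL (f : List ℤ → List ℤ) : Matrix (Fin 3) (Fin 3) (ZMod 2) :=
  Matrix.of fun i j => chiList (f (baseL.getD (j : ℕ) [])) (emb i)

theorem mat_eq_matL {c : Co0} {f : List ℤ → List ℤ}
    (h : ∀ v : leechLattice,
      ofVec ((c • v : leechLattice) : GolayPt → ℤ) = f (ofVec (v : GolayPt → ℤ))) :
    mat c = matL f := by
  ext i j
  show chi (c • bv (emb j)) (emb i) = _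
  rw [chi_eq, h, ofVec_bv]
  rfl

theorem kernel_ok : ∀ C ∈ fixMasks, ∀ t ∈ centTabs, matL (monList C t) = 1 →
    (C = 0 ∨ C = 2 ^ 24 - 1) ∧ t ∈ powTabs := by decide +kernel

theorem stabMon_ok : stabMon.length = 24 ∧ ∀ p ∈ stabMon, validP p := by decide +kernel

/-- Determinant of a 3 by 3 matrix. -/
def det3 (A : Matrix (Fin 3) (Fin 3) (ZMod 2)) : ZMod 2 :=
  A 0 0 * A 1 1 * A 2 2 - A 0 0 * A 1 2 * A 2 1 - A 0 1 * A 1 0 * A 2 2
    + A 0 1 * A 1 2 * A 2 0 + A 0 2 * A 1 0 * A 2 1 - A 0 2 * A 1 1 * A 2 0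

/-- Number of a matrix. -/
def code3 (A : Matrix (Fin 3) (Fin 3) (ZMod 2)) : ℕ :=
  (A 0 0).val + 2 * (A 0 1).val + 4 * (A 0 2).val + 8 * (A 1 0).val + 16 * (A 1 1).val +
    32 * (A 1 2).val + 64 * (A 2 0).val + 128 * (A 2 1).val + 256 * (A 2 2).val

/-- The matrix of a number. -/
def decode3 (n : ℕ) : Matrix (Fin 3) (Fin 3) (ZMod 2) :=
  Matrix.of fun i j => bif n.testBit (3 * (i : ℕ) + (j : ℕ)) then 1 else 0

/-- The codes of the matrices generated. -/
def reached : List ℕ :=
  let H := stabMon.map fun p => matL (monPL p)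
  let G := matL (stepList gRows)
  let HG := H.map fun A => A * G
  H.map code3 ++ HG.flatMap fun A => H.map fun B => code3 (A * B)

theorem cover_ok : (List.range 512).all (fun n =>
    decide (det3 (decode3 n) = 0) || reached.contains n) = true := by decide +kernel

theorem code_decode (A : Matrix (Fin 3) (Fin 3) (ZMod 2)) : decode3 (code3 A) = A ∧
    code3 A < 512 := by
  have h : ∀ a b c d e f g i k : ZMod 2,
      decode3 (code3 !![a, b, c; d, e, f; g, i, k]) = !![a, b, c; d, e, f; g, i, k] ∧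
      code3 !![a, b, c; d, e, f; g, i, k] < 512 := by decide +kernel
  rw [A.eta_fin_three]
  exact h _ _ _ _ _ _ _ _ _

theorem rho_surjective : Function.Surjective rho := by
  intro M
  obtain ⟨hd, hlt⟩ := code_decode M.1
  have h := cover_ok
  rw [List.all_eq_true] at h
  have h1 := h _ (List.mem_range.2 hlt)
  rw [hd, Bool.or_eq_true, decide_eq_true_eq, List.contains_iff_mem] at h1
  have hdet : det3 M.1 = 1 := by
    have h2 := M.2
    rw [Matrix.det_fin_three] at h2
    exact h2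
  rcases h1 with h1 | h1
  · rw [hdet] at h1; exact absurd h1 one_ne_zero
  have hval : ∀ A : Matrix (Fin 3) (Fin 3) (ZMod 2), code3 A = code3 M.1 → A = M.1 :=
    fun A e => by rw [← (code_decode A).1, e, (code_decode M.1).1]
  have hm : ∀ p ∈ stabMon, monP p ∈ cSigma ∧ mat (monP p) = matL (monPL p) := fun p hp =>
    ⟨monP_mem (stabMon_ok.2 p hp), mat_eq_matL (ofVec_monP (stabMon_ok.2 p hp))⟩
  simp only [reached, List.map_map, List.mem_append, List.mem_map, List.mem_flatMap,
    Function.comp_apply] at h1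
  rcases h1 with ⟨p, hp, e⟩ | ⟨_, ⟨p, hp, rfl⟩, q, hq, e⟩
  · exact ⟨⟨monP p, (hm p hp).1⟩, Subtype.ext ((hm p hp).2.trans (hval _ e))⟩
  · refine ⟨⟨monP p, (hm p hp).1⟩ * ⟨gam, gam_mem⟩ * ⟨monP q, (hm q hq).1⟩, Subtype.ext ?_⟩
    show mat (monP p * gam * monP q) = M.1
    rw [mat_mul (hm q hq).1, mat_mul gam_mem, (hm p hp).2, (hm q hq).2, mat_eq_matL ofVec_gam]
    exact hval _ e

theorem mrep_signed {g : Co0} {C : ℕ} {t : List ℕ} (h : MRep g C t)
    (hC : C = 0 ∨ C = 2 ^ 24 - 1) (ht : t ∈ powTabs) :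
    ∃ n : ℕ, g = sigma ^ n ∨ g = negOne * sigma ^ n := by
  obtain ⟨n, hn, rfl⟩ := List.getElem_of_mem ht
  have hn7 : n < 7 := by
    rw [show powTabs.length = 7 by decide +kernel] at hn; exact hn
  have hp := mrep_sigma_pow n
  rw [Nat.mod_eq_of_lt hn7, List.getD_eq_getElem _ _ hn] at hp
  refine ⟨n, ?_⟩
  rcases hC with rfl | rfl
  · exact Or.inl (MRep.ext h hp)
  · refine Or.inr (MRep.ext h ?_)
    have h2 := mrep_negOne.mul hp
    rw [maskImage_zero, Nat.xor_zero] at h2
    have e : ∀ k : Fin 7, compTab idTab (powTabs.getD k []) = powTabs.getD k [] := by decide +kernel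
    have e' := e ⟨n, hn7⟩
    simp only [List.getD_eq_getElem _ _ hn] at e'
    rwa [e'] at h2

theorem rho_eq_one {c : cSigma} (h : rho c = 1) :
    ∃ n : ℕ, (c : Co0) = sigma ^ n ∨ (c : Co0) = negOne * sigma ^ n := by
  have hm : mat (c : Co0) = 1 := congrArg Subtype.val h
  have hf := fixed_smul c.2 (fixed_bv 0)
  have hA := inA_chi c.2 (fixed_bv 0) (inA_bv 0)
  have hchi : chi ((c : Co0) • bv 0) = chi (bv 0) := by
    funext i
    have e : ∀ i : Fin 3, chi ((c : Co0) • bv 0) (emb i) = chi (bv 0) (emb i) := fun i => by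
      have := congrFun (congrFun hm i) 0
      change chi ((c : Co0) • bv 0) (emb i) = _ at this
      rw [this]
      exact (chi_bv_emb i 0).symm
    obtain ⟨h3, h4, h5⟩ := hA
    obtain ⟨g3, g4, g5⟩ := inA_bv 0
    fin_cases i
    · exact e 0
    · exact e 1
    · exact e 2
    · exact h3.trans g3.symm
    · exact h4.trans g4.symm
    · exact h5.trans g5.symm
  have hfr : (c : Co0) ∈ frameStab :=
    ((cg_axis_base.smul (c : Co0)).trans (fixed_cg_of_chi hf (fixed_bv 0) hchi)).trans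
      cg_axis_base.symm
  obtain ⟨C, hC, t, ht, hr⟩ := frame_comm hfr (mem_cSigma.1 c.2)
  obtain ⟨hC', ht'⟩ := kernel_ok C hC t ht (by rw [← mat_eq_matL (MRep.ofVec_smul hr), hm])
  exact mrep_signed hr hC' ht'

theorem rho_ker {c : cSigma} (h : (c : Co0) ∈ Subgroup.zpowers sigma ⊔ Subgroup.center Co0) :
    rho c = 1 := by
  have hle : Subgroup.zpowers sigma ⊔ Subgroup.center Co0 ≤
      { carrier := {g : Co0 | g ∈ cSigma ∧ mat g = 1}
        one_mem' := ⟨one_mem _, mat_one⟩
        mul_mem' := fun {a b} ha hb =>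
          ⟨mul_mem ha.1 hb.1, by rw [mat_mul hb.1, ha.2, hb.2, mul_one]⟩
        inv_mem' := fun {a} ha =>
          ⟨inv_mem ha.1, by
            have := mat_mul (c := a) (inv_mem ha.1)
            rwa [mul_inv_cancel, mat_one, ha.2, one_mul, eq_comm] at this⟩ } := by
    refine sup_le (Subgroup.zpowers_le.2 ⟨mem_cSigma.2 rfl, ?_⟩) fun g hg => ?_
    · ext i j
      show chi (sigma • bv (emb j)) (emb i) = _
      rw [sigma_bv]
      exact chi_bv_emb i j
    · refine ⟨mem_cSigma.2 ((Subgroup.mem_center_iff.1 hg sigma).symm), ?_⟩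
      rcases center_co0_cases hg with rfl | rfl
      · exact mat_one
      · ext i j
        show chi (negOne • bv (emb j)) (emb i) = _
        rw [negOne_smul, chi_cg (cg_neg _)]
        exact chi_bv_emb i j
  exact Subtype.ext (hle h).2

/-- An element acting trivially on all fixed classes acts trivially on the first family. -/
theorem rho_eq_one_of_trivial {c : cSigma}
    (h : ∀ v : leechLattice, Fixed v → Cg ((c : Co0) • v) v) : rho c = 1 := by
  refine Subtype.ext (Matrix.ext fun i j => ?_)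
  show chi ((c : Co0) • bv (emb j)) (emb i) = _
  rw [chi_cg (h _ (fixed_bv _))]
  exact chi_bv_emb i j

end CfsgLib.Co0Seven

end
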