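import Cfsg.Agent.Co0Seven97.Fixed
import Cfsg.Agent.Leech.Monster.Orbits

/-!
# The fourteen frame classes among the fixed classes
-/

set_option autoImplicit false
set_option maxRecDepth 100000

noncomputable section

namespace CfsgLib.Co0Seven

open Cfsg CfsgLib.Leech CfsgLib.Mathieu CfsgLib.Golay CfsgLib.Co0Five CfsgLib.StdCo0

/-- The coordinates with a given number. -/
def xOf (n : ℕ) : Fin 6 → ZMod 2 := fun j => bif n.testBit j then 1 else 0

theorem xOf_surjective : ∀ x : Fin 6 → ZMod 2, ∃ n : Fin 64, xOf n = x := by decide +kernel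

/-- The coordinates of the frame classes. -/
def IsFrameX (x : Fin 6 → ZMod 2) : Prop :=
  x ≠ 0 ∧ ((x 0 = 0 ∧ x 1 = 0 ∧ x 2 = 0) ∨ (x 3 = 0 ∧ x 4 = 0 ∧ x 5 = 0))

instance (x : Fin 6 → ZMod 2) : Decidable (IsFrameX x) := by unfold IsFrameX; infer_instance

/-- The list of a combination. -/
def combList (n : ℕ) : List ℤ :=
  (List.range 24).map fun i =>
    ((List.range 6).map fun j => bif n.testBit j then (baseL.getD j []).getD i 0 else 0).sum

theorem ofVec_comb (n : ℕ) : ofVec (comb (xOf n) : GolayPt → ℤ) = combList n := by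
  refine List.map_congr_left fun i hi => ?_
  have hb : ∀ j : Fin 6,
      ((if xOf n j = 1 then bv j else 0 : leechLattice) : GolayPt → ℤ) (idxPt i) =
      bif n.testBit j then (baseL.getD j []).getD i 0 else 0 := fun j => by
    rw [← ofVec_bv j, ofVec_getD _ (List.mem_range.1 hi)]
    rcases h : n.testBit j with _ | _ <;> simp [xOf, h]
  simp only [comb, Fin.sum_univ_six, AddSubgroup.coe_add, Pi.add_apply, hb]
  simp [List.range_succ]
  ring

/-- The check of one class. -/
def classOK (n : ℕ) : Prop :=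
  let w := witL.getD n []
  let N := dot w w
  let M := dot (combList n) (combList n)
  (CheckLeech (toVec w) ∧ w.length = 24 ∧ cgList w (combList n) ∧
      ((N = 64 ∧ IsFrameX (xOf n)) ∨ (N ≤ 64 ∧ N ≠ 64 ∧ ¬ IsFrameX (xOf n)))) ∨
    (M % 32 ≠ 0 ∧ ¬ IsFrameX (xOf n))

instance (n : ℕ) : Decidable (classOK n) := by unfold classOK; infer_instance

theorem class_ok : ∀ n : Fin 64, classOK n := by decide +kernel

theorem sqNorm_cg {u v : leechLattice} (h : Cg u v) :
    (32 : ℤ) ∣ sqNorm (u : GolayPt → ℤ) - sqNorm (v : GolayPt → ℤ) := by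
  obtain ⟨w, hw⟩ := h
  rw [show u = v + (w + w) by rw [← hw]; abel]
  obtain ⟨a, ha⟩ := eight_dvd_dotInt v.2 w.2
  obtain ⟨b, hb⟩ := sixteen_dvd_sqNorm w.2
  have e : sqNorm ((w : GolayPt → ℤ) + (w : GolayPt → ℤ)) = 4 * sqNorm (w : GolayPt → ℤ) := by
    rw [← two_zsmul, sqNorm_smul]; norm_num
  have e2 : dotInt (v : GolayPt → ℤ) ((w : GolayPt → ℤ) + (w : GolayPt → ℤ)) = 16 * a := by
    rw [dotInt_add_right', ha]; ring
  refine ⟨a + 2 * b, ?_⟩
  simp only [AddSubgroup.coe_add, sqNorm_add, e, e2, hb]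
  ring

/-- The frame classes among the fixed ones. -/
theorem rel_comb_iff (x : Fin 6 → ZMod 2) :
    Rel (comb x) (axisVec none) ↔ IsFrameX x := by
  obtain ⟨n, rfl⟩ := xOf_surjective x
  rcases class_ok n with ⟨hc, hl, hcg, hN⟩ | ⟨hM, hF⟩
  · let u : leechLattice := ⟨_, mem_leech_of_check hc⟩
    have hu : ofVec (u : GolayPt → ℤ) = witL.getD n [] := ofVec_toVec hl
    have hcg' : Cg u (comb (xOf n)) := cg_of_list (by rw [hu, ofVec_comb]; exact hcg)
    have hn : sqNorm (u : GolayPt → ℤ) = dot (witL.getD n []) (witL.getD n []) := by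
      rw [sqNorm_eq, hu]
    rcases hN with ⟨hN, hF⟩ | ⟨hle, hne, hF⟩
    · exact iff_of_true ((Rel.of_cg hcg'.symm).trans (rel_norm64 u (hn.trans hN))) hF
    · refine iff_of_false (fun hr => hne ?_) hF
      rw [← hn, rel_short ((Rel.of_cg hcg').trans hr) (hn ▸ hle) (le_of_eq (sqNorm_axisVec none)),
        sqNorm_axisVec]
  · refine iff_of_false (fun ⟨t, ht⟩ => hM ?_) hF
    have h := sqNorm_cg ht
    rw [co0_sqNorm, sqNorm_axisVec, sqNorm_eq, ofVec_comb] at h
    omega

theorem rel_iff_isFrameX {v : leechLattice} (h : Fixed v) :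
    Rel v (axisVec none) ↔ IsFrameX (chi v) := by
  rw [← rel_comb_iff]
  exact ⟨fun hr => (Rel.of_cg (fixed_eq h).symm).trans hr,
    fun hr => (Rel.of_cg (fixed_eq h)).trans hr⟩

theorem cg_axis_base : Cg (axisVec none) (bv 0) := cg_of_list <| by
  rw [ofVec_axis, ofVec_bv]; decide +kernel

theorem count_frameX : Nat.card {x : Fin 6 → ZMod 2 // IsFrameX x} = 14 := by
  rw [Nat.card_eq_fintype_card]
  decide +kernel

end CfsgLib.Co0Seven

end
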