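import Cfsg.Agent.Co0Five.Mat

/-! Coordinate lists of lattice vectors. -/

set_option autoImplicit false
set_option maxRecDepth 10000

noncomputable section

namespace CfsgLib.Co0Seven

open Cfsg CfsgLib.Leech CfsgLib.Co0Five
open scoped BigOperators

/-- Difference of lists. -/
def subList (l m : List ℤ) : List ℤ := (List.range 24).map fun i => l.getD i 0 - m.getD i 0

theorem pts_idx : ∀ i : Fin 24, ptIdx (idxPt i) = i := by decide +kernel

theorem ofVec_toVec {l : List ℤ} (h : l.length = 24) : ofVec (toVec l) = l := by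
  refine List.ext_getElem (by simp [ofVec, h]) fun i h1 h2 => ?_
  have hi : i < 24 := h ▸ h2
  simp [ofVec, toVec, pts_idx ⟨i, hi⟩, h2]

theorem dot_map {α : Type*} (f g : α → ℤ) : ∀ l : List α,
    dot (l.map f) (l.map g) = (l.map fun a => f a * g a).sum
  | [] => rfl
  | a :: l => by simp [dot, dot_map f g l]

theorem dotInt_eq (x y : GolayPt → ℤ) : dotInt x y = dot (ofVec x) (ofVec y) := by
  have h : ((List.range 24).map idxPt).toFinset = (Finset.univ : Finset GolayPt) ∧
      ((List.range 24).map idxPt).Nodup := by decide +kernel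
  rw [dotInt, ← h.1, List.sum_toFinset _ h.2, List.map_map, ofVec, ofVec, dot_map]
  rfl

theorem sqNorm_eq (x : GolayPt → ℤ) : sqNorm x = dot (ofVec x) (ofVec x) := by
  rw [← dotInt_eq, sqNorm, dotInt]; simp [sq]

theorem ofVec_getD (x : GolayPt → ℤ) {i : ℕ} (h : i < 24) : (ofVec x).getD i 0 = x (idxPt i) := by
  simp [ofVec, List.getD_eq_getElem?_getD, List.getElem?_range h]

theorem ofVec_sub (x y : GolayPt → ℤ) : ofVec (x - y) = subList (ofVec x) (ofVec y) := by
  refine List.map_congr_left fun i hi => ?_
  rw [ofVec_getD x (List.mem_range.1 hi), ofVec_getD y (List.mem_range.1 hi)]; rfl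

end CfsgLib.Co0Seven

end
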