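import Cfsg.Agent.Co0Seven97.Data
import Cfsg.Agent.Co0Seven97.VecList

/-! The three matrices are automorphisms of the lattice. -/

set_option autoImplicit false
set_option maxRecDepth 100000

namespace CfsgLib.Co0Seven

open Cfsg CfsgLib.Leech CfsgLib.Co0Five

theorem okG : MatOK gRows gCols :=
  ⟨by decide +kernel, by decide +kernel, by decide +kernel, by decide +kernel, by decide +kernel⟩

theorem okI0 : MatOK iRows0 iCols0 :=
  ⟨by decide +kernel, by decide +kernel, by decide +kernel, by decide +kernel, by decide +kernel⟩

theorem okI1 : MatOK iRows1 iCols1 :=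
  ⟨by decide +kernel, by decide +kernel, by decide +kernel, by decide +kernel, by decide +kernel⟩

end CfsgLib.Co0Seven
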