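import Cfsg.Agent.Co0Seven97.Mono
import Cfsg.Agent.Co0Seven97.Mats

/-!
# The element of order 7 and the three matrices
-/

set_option autoImplicit false
set_option maxRecDepth 100000

noncomputable section

namespace CfsgLib.Co0Seven

open Cfsg CfsgLib.Leech CfsgLib.Mathieu CfsgLib.Golay CfsgLib.Co0Five CfsgLib.StdCo0

/-- The element of order 7. -/
def sigma : Co0 := mon (0, sTab)

theorem mrep_sigma : MRep sigma 0 sTab :=
  mrep_mon (x := (0, sTab)) (by decide +kernel) (by decide +kernel)

theorem mrep_sigma_pow : ∀ n : ℕ, MRep (sigma ^ n) 0 (powTabs.getD (n % 7) []) := by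
  have hstep : ∀ r : ℕ, r < 7 →
      compTab sTab (powTabs.getD r []) = powTabs.getD ((r + 1) % 7) [] := by decide +kernel
  intro n
  induction n with
  | zero =>
    rw [pow_zero, show powTabs.getD (0 % 7) [] = idTab by decide +kernel]
    exact MRep.one
  | succ n ih =>
    rw [pow_succ']
    have h := mrep_sigma.mul ih
    rw [maskImage_zero, Nat.xor_zero, hstep _ (Nat.mod_lt _ (by norm_num)), Nat.mod_add_mod] at h
    exact h

theorem sigma_pow_seven : sigma ^ 7 = 1 := by
  refine MRep.ext (mrep_sigma_pow 7) ?_
  rw [show powTabs.getD (7 % 7) [] = idTab by decide +kernel]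
  exact MRep.one

theorem orderOf_sigma : orderOf sigma = 7 := by
  haveI : Fact (Nat.Prime 7) := ⟨by norm_num⟩
  refine orderOf_eq_prime sigma_pow_seven fun h => ?_
  exact absurd (MRep.unique (h ▸ mrep_sigma) MRep.one).2 (by decide +kernel)

theorem sigma_mem_frameStab : sigma ∈ frameStab := by
  obtain ⟨x, hx, -, -⟩ := mrep_sigma
  rw [← hx, monomial]
  exact mul_mem (signs_mem_frameStab _ _) (permHom_mem_frameStab _)

theorem mrep_sigma_inv : MRep sigma⁻¹ 0 sInvTab := by
  rw [inv_eq_of_mul_eq_one_right (show sigma * sigma ^ 6 = 1 by rw [← pow_succ', sigma_pow_seven]),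
    show sInvTab = powTabs.getD (6 % 7) [] by decide +kernel]
  exact mrep_sigma_pow 6

/-- The centralizing element moving the base class. -/
def gam : Co0 := matCo0 okG

/-- The two inverting elements. -/
def inver (n : ℕ) : Co0 := bif n == 0 then matCo0 okI0 else matCo0 okI1

/-- The rows of the inverting elements. -/
def inverRows (n : ℕ) : List (List ℤ) := bif n == 0 then iRows0 else iRows1

theorem rows_length : gRows.length = 24 ∧ iRows0.length = 24 ∧ iRows1.length = 24 := by
  decide +kernel

theorem ofVec_gam (v : leechLattice) :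
    ofVec ((gam • v : leechLattice) : GolayPt → ℤ) = stepList gRows (ofVec (v : GolayPt → ℤ)) :=
  ofVec_toVec (by simp [stepList, rows_length.1])

theorem ofVec_inver (n : ℕ) (v : leechLattice) :
    ofVec ((inver n • v : leechLattice) : GolayPt → ℤ) =
      stepList (inverRows n) (ofVec (v : GolayPt → ℤ)) := by
  rcases h : n == 0 with _ | _ <;> simp only [inver, inverRows, h, cond_false, cond_true]
  · exact ofVec_toVec (by simp [stepList, rows_length.2.2])
  · exact ofVec_toVec (by simp [stepList, rows_length.2.1])

theorem ofVec_axis (i : GolayPt) : ofVec (axisVec i : GolayPt → ℤ) =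
    (List.range 24).map fun k => bif k == p2i i then 8 else 0 := by
  refine List.map_congr_left fun k hk => ?_
  have hk' := List.mem_range.1 hk
  by_cases h : k = p2i i
  · subst h
    rw [idxPt_eq_i2p, i2p_p2i]
    simp [axisVec, single]
  · have hne : idxPt k ≠ i := fun e => h (by rw [← e, idxPt_eq_i2p, p2i_i2p k hk'])
    simp [axisVec, single, hne, beq_false_of_ne h]

theorem commute_of_axis {g : Co0} {rows : List (List ℤ)}
    (hg : ∀ v : leechLattice, ofVec ((g • v : leechLattice) : GolayPt → ℤ) =
      stepList rows (ofVec (v : GolayPt → ℤ))) {a b : Co0} {ta tb : List ℕ}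
    (ha : MRep a 0 ta) (hb : MRep b 0 tb)
    (h : ∀ i : GolayPt, stepList rows (monList 0 ta (ofVec (axisVec i : GolayPt → ℤ))) =
      monList 0 tb (stepList rows (ofVec (axisVec i : GolayPt → ℤ)))) : g * a = b * g := by
  refine co0_ext fun i => Subtype.ext (toVec_ofVec_eq ?_)
  rw [mul_smul, mul_smul, hg, MRep.ofVec_smul ha, MRep.ofVec_smul hb, hg]
  exact h i
where
  toVec_ofVec_eq {x y : GolayPt → ℤ} (h : ofVec x = ofVec y) : x = y := by
    rw [← toVec_ofVec x, h, toVec_ofVec]

theorem gam_comm : gam * sigma = sigma * gam :=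
  commute_of_axis ofVec_gam mrep_sigma mrep_sigma fun i => by
    rw [ofVec_axis]; revert i; decide +kernel

theorem inver_comm (n : ℕ) : inver n * sigma = sigma⁻¹ * inver n := by
  refine commute_of_axis (ofVec_inver n) mrep_sigma mrep_sigma_inv fun i => ?_
  rw [ofVec_axis]
  rcases h : n == 0 with _ | _ <;> simp only [inverRows, h, cond_false, cond_true] <;>
    revert i <;> decide +kernel

end CfsgLib.Co0Seven

end
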