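import Cfsg.Agent.Co0Seven97.Elements

/-!
# The fixed classes of the element of order 7 modulo 2
-/

set_option autoImplicit false
set_option maxRecDepth 100000

noncomputable section

namespace CfsgLib.Co0Seven

open Cfsg CfsgLib.Leech CfsgLib.Mathieu CfsgLib.Golay CfsgLib.Co0Five CfsgLib.StdCo0

theorem baseL_check : ∀ j : Fin 6, CheckLeech (toVec (baseL.getD j [])) := by decide +kernel

theorem dualL_check : ∀ j : Fin 6, CheckLeech (toVec (dualL.getD j [])) := by decide +kernel

/-- The basis of the fixed lattice. -/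
def bv (j : Fin 6) : leechLattice := ⟨_, mem_leech_of_check (baseL_check j)⟩

/-- The dual vectors. -/
def dv (j : Fin 6) : leechLattice := ⟨_, mem_leech_of_check (dualL_check j)⟩

theorem baseL_length : ∀ j : Fin 6, (baseL.getD j []).length = 24 ∧ (dualL.getD j []).length = 24 := by
  decide +kernel

theorem ofVec_bv (j : Fin 6) : ofVec (bv j : GolayPt → ℤ) = baseL.getD j [] :=
  ofVec_toVec (baseL_length j).1

theorem ofVec_dv (j : Fin 6) : ofVec (dv j : GolayPt → ℤ) = dualL.getD j [] :=
  ofVec_toVec (baseL_length j).2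

/-- The coordinates of a class on the fixed classes. -/
def chi : leechLattice →+ (Fin 6 → ZMod 2) :=
  AddMonoidHom.mk' (fun v j => dotPar v (dv j)) fun u v => funext fun j => dotPar_add_left u v (dv j)

/-- The coordinates computed on a list. -/
def chiList (l : List ℤ) : Fin 6 → ZMod 2 := fun j => ((dot l (dualL.getD j []) / 8 : ℤ) : ZMod 2)

theorem chi_eq (v : leechLattice) : chi v = chiList (ofVec (v : GolayPt → ℤ)) := by
  funext j
  show dotPar v (dv j) = _
  rw [dotPar_eq, ofVec_dv]
  rfl

theorem chi_cg {u v : leechLattice} (h : Cg u v) : chi u = chi v :=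
  funext fun _ => dotPar_cg h _

theorem chi_bv (i j : Fin 6) : chi (bv i) j = if i = j then 1 else 0 := by
  rw [chi_eq, ofVec_bv]
  revert i j
  decide +kernel

/-- The vector with given coordinates. -/
def comb (x : Fin 6 → ZMod 2) : leechLattice := ∑ j, if x j = 1 then bv j else 0

theorem chi_comb (x : Fin 6 → ZMod 2) : chi (comb x) = x := by
  funext i
  rw [comb, map_sum, Finset.sum_apply, Finset.sum_eq_single i]
  · rcases (show ∀ a : ZMod 2, a = 0 ∨ a = 1 by decide) (x i) with h | h <;>
      simp [h, chi_bv]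
  · intro j _ hj
    split_ifs <;> simp [chi_bv, hj]
  · simp

theorem comb_zero : comb 0 = 0 := by simp [comb]

/-- The class is fixed. -/
def Fixed (v : leechLattice) : Prop := Cg (sigma • v) v

theorem sigma_bv (j : Fin 6) : sigma • bv j = bv j := by
  have h : ofVec ((sigma • bv j : leechLattice) : GolayPt → ℤ) = ofVec (bv j : GolayPt → ℤ) := by
    rw [MRep.ofVec_smul mrep_sigma, ofVec_bv]
    revert j
    decide +kernel
  exact Subtype.ext (by rw [← toVec_ofVec ((sigma • bv j : leechLattice) : GolayPt → ℤ), h,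
    toVec_ofVec])

theorem sigma_comb (x : Fin 6 → ZMod 2) : sigma • comb x = comb x := by
  rw [comb, co0_map_sum]
  refine Finset.sum_congr rfl fun j _ => ?_
  split_ifs
  · exact sigma_bv j
  · exact co0_map_zero _

theorem fixed_comb (x : Fin 6 → ZMod 2) : Fixed (comb x) := by
  rw [Fixed, sigma_comb]; exact Cg.refl _

/-- The orbit sum. -/
def orbSum : leechLattice →+ leechLattice :=
  ∑ n : Fin 7, addHom (sigma ^ (n : ℕ))

/-- The orbit sum on a list. -/
def orbList (l : List ℤ) : List ℤ :=
  (List.range 24).map fun i => ((List.range 7).map fun n => l.getD (app (powTabs.getD n []) i) 0).sum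

theorem ofVec_orbSum (v : leechLattice) :
    ofVec ((orbSum v : leechLattice) : GolayPt → ℤ) = orbList (ofVec (v : GolayPt → ℤ)) := by
  refine List.map_congr_left fun i hi => ?_
  have hi' := List.mem_range.1 hi
  have hterm : ∀ n : ℕ, n < 7 → ((sigma ^ n • v : leechLattice) : GolayPt → ℤ) (idxPt i) =
      (ofVec (v : GolayPt → ℤ)).getD (app (powTabs.getD ((7 - n) % 7) []) i) 0 := by
    intro n hn
    have h1 := congrArg (fun l => l.getD i 0) (MRep.ofVec_smul (mrep_sigma_pow n) v)
    simp only [ofVec_getD _ hi', monList, Nat.zero_testBit, cond_false,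
      List.getD_eq_getElem?_getD, List.getElem?_map, List.getElem?_range hi', Option.map_some,
      Option.getD_some] at h1
    rw [h1]
    have hidx : ∀ n : Fin 7, ∀ k : Fin 24, (powTabs.getD ((n : ℕ) % 7) []).idxOf (k : ℕ) =
        app (powTabs.getD ((7 - (n : ℕ)) % 7) []) k := by decide +kernel
    have h2 := hidx ⟨n, hn⟩ ⟨i, hi'⟩
    simp only [List.getD_eq_getElem?_getD] at h2 ⊢
    rw [h2]
  simp only [orbSum, AddMonoidHom.finsetSum_apply, AddSubgroup.val_finsetSum, Finset.sum_apply,
    Fin.sum_univ_seven]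
  show ((sigma ^ 0 • v : leechLattice) : GolayPt → ℤ) _ + _ + _ + _ + _ + _ + _ = _
  simp only [addHom]
  rw [hterm 0 (by norm_num)]
  show _ + ((sigma ^ 1 • v : leechLattice) : GolayPt → ℤ) _ + ((sigma ^ 2 • v : leechLattice) :
    GolayPt → ℤ) _ + ((sigma ^ 3 • v : leechLattice) : GolayPt → ℤ) _ +
    ((sigma ^ 4 • v : leechLattice) : GolayPt → ℤ) _ + ((sigma ^ 5 • v : leechLattice) :
    GolayPt → ℤ) _ + ((sigma ^ 6 • v : leechLattice) : GolayPt → ℤ) _ = _
  rw [hterm 1 (by norm_num), hterm 2 (by norm_num), hterm 3 (by norm_num), hterm 4 (by norm_num),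
    hterm 5 (by norm_num), hterm 6 (by norm_num)]
  simp [List.range_succ]
  ring

/-- The combination of basis lists with given coefficients. -/
def coefList (c : List ℤ) : List ℤ :=
  (List.range 24).map fun i => ((List.range 6).map fun j => c.getD j 0 * (baseL.getD j []).getD i 0).sum

theorem ofVec_coef (c : List ℤ) :
    ofVec ((∑ j : Fin 6, c.getD j 0 • bv j : leechLattice) : GolayPt → ℤ) = coefList c := by
  refine List.map_congr_left fun i hi => ?_
  have hb : ∀ j : Fin 6, ((bv j : leechLattice) : GolayPt → ℤ) (idxPt i) =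
      (baseL.getD j []).getD i 0 := fun j => by
    rw [← ofVec_bv j, ofVec_getD _ (List.mem_range.1 hi)]
  simp [Fin.sum_univ_six, hb, List.range_succ]
  ring

theorem norm_check : ∀ k : Fin genList.length,
    orbList (ofVec (genList.get k)) = coefList (normCoef.getD k []) := by
  decide +kernel

/-- Every orbit sum is a combination of the basis. -/
theorem orbSum_mem (v : leechLattice) :
    ∃ c : Fin 6 → ℤ, orbSum v = ∑ j, c j • bv j := by
  let F : (Fin 6 → ℤ) →+ leechLattice :=
    AddMonoidHom.mk' (fun c => ∑ j, c j • bv j) fun c c' => by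
      simp only [Pi.add_apply, add_smul, Finset.sum_add_distrib]
  have hle : leechLattice ≤ (F.range.comap orbSum).map leechLattice.subtype :=
    leech_le_of_genList fun g hg => by
      refine ⟨⟨g, genList_mem g hg⟩, ?_, rfl⟩
      obtain ⟨k, hk, rfl⟩ := List.getElem_of_mem hg
      refine ⟨fun j => (normCoef.getD k []).getD j 0, Subtype.ext ?_⟩
      have h := norm_check ⟨k, hk⟩
      rw [← toVec_ofVec ((orbSum ⟨_, genList_mem _ hg⟩ : leechLattice) : GolayPt → ℤ),
        ofVec_orbSum]
      show ((∑ j : Fin 6, (normCoef.getD k []).getD j 0 • bv j : leechLattice) : GolayPt → ℤ) = _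
      rw [show ofVec ((⟨genList[k], genList_mem _ hg⟩ : leechLattice) : GolayPt → ℤ) =
        ofVec (genList.get ⟨k, hk⟩) from rfl, h, ← ofVec_coef, toVec_ofVec]
  obtain ⟨u, ⟨c, hc⟩, hu⟩ := hle v.2
  obtain rfl : u = v := Subtype.ext hu
  exact ⟨c, hc.symm⟩

theorem orbSum_cg {v : leechLattice} (h : Fixed v) : Cg (orbSum v) v := by
  have hp : ∀ n : ℕ, Cg (sigma ^ n • v) v := by
    intro n
    induction n with
    | zero => simpa using Cg.refl v
    | succ n ih => rw [pow_succ', mul_smul]; exact (ih.smul sigma).trans h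
  simp only [orbSum, AddMonoidHom.finsetSum_apply, Fin.sum_univ_seven]
  have h7 := ((((((hp 0).add (hp 1)).add (hp 2)).add (hp 3)).add (hp 4)).add (hp 5)).add (hp 6)
  exact h7.trans ⟨v + v + v, by abel⟩

theorem cg_zsmul (k : ℤ) (u : leechLattice) :
    Cg (k • u) (if (k : ZMod 2) = 1 then u else 0) := by
  rcases Int.even_or_odd' k with ⟨m, rfl | rfl⟩
  · rw [if_neg (by push_cast; simp [show (2 : ZMod 2) = 0 from rfl])]
    exact ⟨m • u, by rw [sub_zero, two_mul, add_smul]⟩
  · rw [if_pos (by push_cast; simp [show (2 : ZMod 2) = 0 from rfl])]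
    exact ⟨m • u, by rw [add_smul, one_smul, two_mul, add_smul]; abel⟩

/-- A fixed class is determined by its coordinates. -/
theorem fixed_eq {v : leechLattice} (h : Fixed v) : Cg v (comb (chi v)) := by
  obtain ⟨c, hc⟩ := orbSum_mem v
  have h2 : Cg (∑ j, c j • bv j) (comb fun j => (c j : ZMod 2)) := by
    simp only [comb, Fin.sum_univ_six]
    exact ((((cg_zsmul _ _).add (cg_zsmul _ _)).add (cg_zsmul _ _)).add (cg_zsmul _ _)
      |>.add (cg_zsmul _ _)).add (cg_zsmul _ _)
  have h3 : Cg v (comb fun j => (c j : ZMod 2)) := (hc ▸ (orbSum_cg h).symm).trans h2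
  rwa [show chi v = fun j => (c j : ZMod 2) from (chi_cg h3).trans (chi_comb _)]

theorem fixed_cg_of_chi {u v : leechLattice} (hu : Fixed u) (hv : Fixed v) (h : chi u = chi v) :
    Cg u v := (fixed_eq hu).trans (h ▸ (fixed_eq hv).symm)

end CfsgLib.Co0Seven

end
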