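import Cfsg.Agent.Co0Seven97.VecList
import Cfsg.Agent.StdCo0.Mono

/-!
# Monomial elements on lists, and membership tests for classes modulo 2
-/

set_option autoImplicit false
set_option maxRecDepth 20000

noncomputable section

namespace CfsgLib.Co0Seven

open Cfsg CfsgLib.Leech CfsgLib.Mathieu CfsgLib.Golay CfsgLib.Co0Five CfsgLib.StdCo0

theorem ptIdx_eq_p2i (p : GolayPt) : ptIdx p = p2i p := by cases p <;> rfl

theorem idxPt_eq_i2p (n : ℕ) : idxPt n = i2p n := rfl

/-- A signed table acting on a list of coordinates. -/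
def monList (C : ℕ) (t : List ℕ) (l : List ℤ) : List ℤ :=
  (List.range 24).map fun i => bif C.testBit i then -l.getD (t.idxOf i) 0 else l.getD (t.idxOf i) 0

theorem idxOf_toTab (g : Equiv.Perm GolayPt) {i : ℕ} (hi : i < 24) :
    (toTab g).idxOf i = p2i (g.symm (i2p i)) := by
  have hnd : (toTab g).Nodup := List.nodup_range.map_on fun a ha b hb e =>
    i2p_inj (List.mem_range.1 ha) (List.mem_range.1 hb) (g.injective (p2i_injective e))
  have hlen : (toTab g).length = 24 := by simp [toTab]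
  have hp : p2i (g.symm (i2p i)) < (toTab g).length := hlen ▸ p2i_lt _
  have he : (toTab g)[p2i (g.symm (i2p i))]'hp = i := by
    simp [toTab, i2p_p2i, p2i_i2p i hi]
  conv_lhs => rw [← he]
  exact hnd.idxOf_getElem _ hp

theorem MRep.ofVec_smul {g : Co0} {C : ℕ} {t : List ℕ} (h : MRep g C t) (v : leechLattice) :
    ofVec ((g • v : leechLattice) : GolayPt → ℤ) = monList C t (ofVec (v : GolayPt → ℤ)) := by
  obtain ⟨⟨c, σ⟩, rfl, rfl, rfl⟩ := h
  refine List.map_congr_left fun i hi => ?_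
  have hi' := List.mem_range.1 hi
  rw [monomial_apply, idxOf_toTab σ.1 hi', ofVec_getD _ (p2i_lt _), idxPt_eq_i2p, idxPt_eq_i2p,
    i2p_p2i]
  have hb : (toMask (support₂ c.1)).testBit i = decide (c.1 (i2p i) ≠ 0) := by
    have h1 := mem_ofMask_iff (m := toMask (support₂ c.1)) (p := i2p i)
    rw [ofMask_toMask, mem_support₂_iff, p2i_i2p i hi'] at h1
    rw [Bool.eq_iff_iff, decide_eq_true_eq]
    exact h1.symm
  rw [hb]
  by_cases hc : c.1 (i2p i) = 0
  · simp [hc]
  · simp [hc]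

theorem MRep.unique {g : Co0} {C C' : ℕ} {t t' : List ℕ} (h : MRep g C t) (h' : MRep g C' t') :
    C = C' ∧ t = t' := by
  obtain ⟨x, rfl, rfl, rfl⟩ := h
  obtain ⟨y, hy, rfl, rfl⟩ := h'
  obtain rfl := monomial_injective hy
  exact ⟨rfl, rfl⟩

theorem maskImage_zero (t : List ℕ) : maskImage t 0 = 0 := by simp [maskImage]

theorem frameStab_mrep {g : Co0} (h : g ∈ frameStab) :
    ∃ C t, MRep g C t ∧ inCode C = true ∧ ∃ σ ∈ M24, toTab σ = t := by
  obtain ⟨⟨c, σ⟩, rfl⟩ := frame_decomp h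
  exact ⟨_, _, ⟨(c, σ), rfl, rfl, rfl⟩, mem_golayCode_iff.1 c.2, σ.1, σ.2, rfl⟩

theorem mrep_negOne : MRep negOne (2 ^ 24 - 1) idTab := by
  refine ⟨(⟨1, one_mem_code⟩, 1), ?_, ?_, toTab_one⟩
  · show signs _ _ * permHom 1 = negOne
    rw [map_one, mul_one]; rfl
  · decide +kernel

/-! ### Congruence modulo twice the lattice -/

/-- Two lists differ by twice a lattice vector. -/
def cgList (l m : List ℤ) : Prop :=
  (∀ a ∈ subList l m, a % 2 = 0) ∧ CheckLeech (toVec ((subList l m).map fun a => a / 2))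

instance (l m : List ℤ) : Decidable (cgList l m) := by unfold cgList; infer_instance

theorem cg_of_list {u v : leechLattice}
    (h : cgList (ofVec (u : GolayPt → ℤ)) (ofVec (v : GolayPt → ℤ))) : Cg u v := by
  obtain ⟨he, hc⟩ := h
  refine cg_of_eq (w := ⟨_, mem_leech_of_check hc⟩) fun i => ?_
  rw [← ofVec_sub] at he
  have hi : ptIdx i < 24 := by rw [ptIdx_eq_p2i]; exact p2i_lt i
  have hid : idxPt (ptIdx i) = i := by rw [ptIdx_eq_p2i, idxPt_eq_i2p, i2p_p2i]
  have hmem : (u : GolayPt → ℤ) i - (v : GolayPt → ℤ) i ∈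
      ofVec ((u : GolayPt → ℤ) - (v : GolayPt → ℤ)) := by
    refine List.mem_map.2 ⟨ptIdx i, List.mem_range.2 hi, ?_⟩
    rw [hid, Pi.sub_apply]
  have h2 := he _ hmem
  have hw : toVec ((ofVec ((u : GolayPt → ℤ) - (v : GolayPt → ℤ))).map fun a => a / 2) i =
      ((u : GolayPt → ℤ) i - (v : GolayPt → ℤ) i) / 2 := by
    simp [toVec, ofVec, List.getD_eq_getElem?_getD, hi, hid]
  show _ = _ + 2 * toVec _ i
  rw [← ofVec_sub, hw]
  omega

/-- The parity of an inner product from lists. -/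
theorem dotPar_eq (u v : leechLattice) : dotPar u v =
    ((dot (ofVec (u : GolayPt → ℤ)) (ofVec (v : GolayPt → ℤ)) / 8 : ℤ) : ZMod 2) := by
  rw [dotPar, dotInt_eq]

theorem dotPar_add_left (u u' v : leechLattice) : dotPar (u + u') v = dotPar u v + dotPar u' v := by
  rw [dotPar_comm, dotPar_add_right, dotPar_comm v, dotPar_comm v]

end CfsgLib.Co0Seven

end
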